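import Mathlib
import Cfsg.Agent.Lib.Helper4.FCQuat
import Cfsg.Agent.Lib.Helper81.FCZ.Defs

/-!
# Project FCZ, package [SOLV-BAR] (helper76)

The dispatcher of `Cfsg.Agent.Lib.Helper4.FC.exists_hom_cyclic_ker`, with the finer conclusion
`Q3 Γ`: a solvable group with trivial `2'`-core and a non-cyclic generalized quaternion Sylow
`2`-subgroup maps onto `V₄`, `Alt(4)` or `Sym(4)` with cyclic kernel.
-/

set_option autoImplicit false

namespace Cfsg.Agent.Lib.Helper76.FCZ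

universe u

/-- [SOLV-BAR] -/
theorem pkgSolvBar : Cfsg.Agent.Lib.Helper81.FCZ.PkgSolvBar.{u} := by
  intro hQV hQ8 Γ _ _ hsol hO T hTnc ⟨n, ⟨e⟩⟩
  classical
  haveI : Fact (Nat.Prime 2) := ⟨Nat.prime_two⟩
  haveI := hsol
  obtain ⟨Q, hQ⟩ : ∃ Q : Subgroup Γ, Q = Cfsg.pCore 2 Γ := ⟨_, rfl⟩
  haveI hQn : Q.Normal := hQ ▸ Cfsg.pCore_normal 2 Γ
  have hQ2 : IsPGroup 2 Q := hQ ▸ Cfsg.Agent.Lib.Helper55.pCore_isPGroup 2 Γ
  have hQT : Q ≤ (T : Subgroup Γ) := hQ ▸ Cfsg.Agent.Lib.Helper55.pCore_le_sylow T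
  have hCQ : Subgroup.centralizer (Q : Set Γ) ≤ Q :=
    hQ ▸ Cfsg.Agent.Lib.Helper55.centralizer_pCore_le hO
  have hmax : ∀ N : Subgroup Γ, N.Normal → IsPGroup 2 N → N ≤ Q := fun N hN hN2 =>
    hQ ▸ Cfsg.Agent.Lib.Helper55.le_pCore hN hN2
  have hnorm : ∀ g : Γ, g ∈ Subgroup.normalizer (Q : Set Γ) := fun g => by
    rw [Subgroup.normalizer_eq_top]; exact Subgroup.mem_top g
  by_cases hall : ∀ g : Γ, (orderOf g).Coprime 2 → g ∈ Subgroup.centralizer (Q : Set Γ)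
  · have hΓ2 : IsPGroup 2 Γ := by
      intro g
      obtain ⟨k, l, hl, hkl⟩ := Nat.exists_eq_two_pow_mul_odd (orderOf_pos g).ne'
      refine ⟨k, ?_⟩
      have hdvd : 2 ^ k ∣ orderOf g := ⟨l, hkl⟩
      have ho : orderOf (g ^ 2 ^ k) = l := by
        rw [orderOf_pow_of_dvd (pow_ne_zero k two_ne_zero) hdvd, hkl,
          Nat.mul_div_cancel_left _ (pow_pos two_pos k)]
      have hc : g ^ 2 ^ k ∈ Q :=
        hCQ (hall _ (by rw [ho]; exact Nat.coprime_two_right.mpr hl))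
      obtain ⟨j, hj⟩ := hQ2 ⟨g ^ 2 ^ k, hc⟩
      have hj' : (g ^ 2 ^ k) ^ 2 ^ j = 1 := congrArg Subtype.val hj
      have h1 : l ∣ 2 ^ j := by rw [← ho]; exact orderOf_dvd_of_pow_eq_one hj'
      have h2 : l = 1 :=
        Nat.Coprime.eq_one_of_dvd (Nat.Coprime.pow_right j (Nat.coprime_two_right.mpr hl)) h1
      rw [h2] at ho
      exact orderOf_eq_one_iff.mp ho
    have hTtop : (⊤ : Subgroup Γ) = T := T.is_maximal' (hΓ2.to_subgroup ⊤) le_top
    obtain ⟨e', -⟩ : ∃ e' : Γ ≃* QuaternionGroup (2 ^ n),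
        e' = (Subgroup.topEquiv.symm.trans (MulEquiv.subgroupCongr hTtop)).trans e := ⟨_, rfl⟩
    have hn : 1 ≤ n := by
      by_contra h
      have h0 : n = 0 := by omega
      subst h0
      apply hTnc
      haveI : IsCyclic (QuaternionGroup (2 ^ 0)) := by
        rw [pow_zero]; exact QuaternionGroup.quaternionGroup_one_isCyclic
      exact isCyclic_of_surjective e.symm e.symm.surjective
    obtain ⟨f, hfs, hfc⟩ := hQV n hn
    left
    refine ⟨f.comp e'.toMonoidHom, hfs.comp e'.surjective, ?_⟩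
    haveI := hfc
    obtain ⟨ψ, hψ⟩ : ∃ ψ : (f.comp e'.toMonoidHom).ker →* f.ker,
        ∀ x, ((ψ x : f.ker) : QuaternionGroup (2 ^ n)) = e' x := by
      refine ⟨(e'.toMonoidHom.comp (f.comp e'.toMonoidHom).ker.subtype).codRestrict f.ker
        (fun x => ?_), fun x => rfl⟩
      exact MonoidHom.mem_ker.mpr (MonoidHom.mem_ker.mp x.2)
    apply isCyclic_of_injective ψ
    intro x y hxy
    have h4 := congrArg Subtype.val hxy
    rw [hψ, hψ] at h4
    exact Subtype.ext (e'.injective h4)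
  · push Not at hall
    obtain ⟨g, hgodd, hgc⟩ := hall
    have hg1 : g ≠ 1 := by rintro rfl; exact hgc (one_mem _)
    obtain ⟨eQ⟩ := Cfsg.Agent.Lib.Helper1.quaternion_eight_of_odd_action T n e Q hQT g
      (hnorm g) hgodd hgc
    right
    exact hQ8 Q hQn hmax hCQ ⟨eQ⟩ ⟨g, hgodd, hg1⟩

end Cfsg.Agent.Lib.Helper76.FCZ
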