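import Mathlib
import Cfsg.Agent.Lib.Helper4.FCQuat
import Cfsg.Agent.Lib.Helper81.FCZ.Defs

/-!
# Project FCZ, package [SOLV-LIFT] (helper76)

Adapted from `Cfsg.Agent.Lib.Helper4.FC.exists_normal_zgroup`: pull the quotient of
`G / O_{2'}(G)` given by `SolvBar` back to `G`.
-/

set_option autoImplicit false

namespace Cfsg.Agent.Lib.Helper76.FCZ

universe u v

open Cfsg.Agent.Lib.Helper81.FCZ

/-- The kernel of a homomorphism factoring through `G / O` (`O` of odd order) with cyclic kernel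
on `G / O` has only cyclic Sylow subgroups, when `G` satisfies `FcSyl`. -/
theorem solvLift_zsyl {G : Type u} [Group G] [Finite G] (hS : FcSyl G) (O : Subgroup G)
    [O.Normal] (hOodd : (Nat.card O).Coprime 2) {X : Type v} [Group X] (fbar : G ⧸ O →* X)
    (hfbar : IsCyclic fbar.ker) : ZSyl (fbar.comp (QuotientGroup.mk' O)).ker := by
  classical
  haveI : Fact (Nat.Prime 2) := ⟨Nat.prime_two⟩
  obtain ⟨π, hπ⟩ : ∃ π : G →* G ⧸ O, π = QuotientGroup.mk' O := ⟨_, rfl⟩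
  rw [← hπ]
  have hπ1 : ∀ x : G, π x = 1 → x ∈ O := fun x hx => by
    rw [hπ] at hx; exact (QuotientGroup.eq_one_iff x).mp hx
  have hinj2 : ∀ x : G, (∃ k : ℕ, x ^ 2 ^ k = 1) → π x = 1 → x = 1 := by
    intro x ⟨k, hk⟩ hx
    have h1 : orderOf x ∣ Nat.card O := by
      have h2 := orderOf_dvd_natCard (⟨x, hπ1 x hx⟩ : O)
      rwa [Subgroup.orderOf_mk] at h2
    have h3 : orderOf x ∣ 2 ^ k := orderOf_dvd_of_pow_eq_one hk
    have h4 : orderOf x = 1 :=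
      Nat.Coprime.eq_one_of_dvd (Nat.Coprime.pow_right k
        (Nat.Coprime.coprime_dvd_left h1 hOodd)) h3
    exact orderOf_eq_one_iff.mp h4
  intro p _ P
  obtain ⟨P', hP'⟩ : ∃ P' : Subgroup G,
      P' = (P : Subgroup (fbar.comp π).ker).map (fbar.comp π).ker.subtype := ⟨_, rfl⟩
  obtain ⟨EP⟩ : Nonempty ((P : Subgroup (fbar.comp π).ker) ≃* P') :=
    ⟨((P : Subgroup (fbar.comp π).ker).equivMapOfInjective _
      (Subgroup.subtype_injective _)).trans (MulEquiv.subgroupCongr hP'.symm)⟩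
  have hP'p : IsPGroup p P' := hP' ▸ P.isPGroup'.map _
  have hP'ker : ∀ x ∈ P', fbar (π x) = 1 := by
    intro x hx
    rw [hP'] at hx
    obtain ⟨y, -, rfl⟩ := hx
    exact MonoidHom.mem_ker.mp y.2
  by_cases hp2 : p = 2
  · subst hp2
    haveI := hfbar
    obtain ⟨ψ, hψ⟩ : ∃ ψ : P' →* fbar.ker, ∀ x : P', ((ψ x : fbar.ker) : G ⧸ O) = π x :=
      ⟨(π.comp P'.subtype).codRestrict fbar.ker (fun x => MonoidHom.mem_ker.mpr (hP'ker x x.2)),
        fun x => rfl⟩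
    have hψi : Function.Injective ψ := by
      rw [injective_iff_map_eq_one]
      intro x hx
      have h1 : π (x : G) = 1 := by rw [← hψ, hx]; rfl
      obtain ⟨k, hk⟩ := hP'p x
      have h2 : (x : G) ^ 2 ^ k = 1 := congrArg Subtype.val hk
      exact Subtype.ext (hinj2 _ ⟨k, h2⟩ h1)
    haveI : IsCyclic P' := isCyclic_of_injective ψ hψi
    exact isCyclic_of_surjective EP.symm EP.symm.surjective
  · obtain ⟨Sp, hSp⟩ := hP'p.exists_le_sylow
    rcases hS p Sp with hc | ⟨n, ⟨e⟩⟩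
    · haveI := hc
      haveI : IsCyclic P' := Subgroup.isCyclic_of_le hSp
      exact isCyclic_of_surjective EP.symm EP.symm.surjective
    · exfalso
      haveI : NeZero (2 ^ n) := ⟨pow_ne_zero n two_ne_zero⟩
      have h1 : Nat.card (Sp : Subgroup G) = 4 * 2 ^ n := by
        rw [Nat.card_congr e.toEquiv, Nat.card_eq_fintype_card, QuaternionGroup.card]
      obtain ⟨k, hk⟩ := IsPGroup.iff_card.mp Sp.isPGroup'
      have h2 : 2 ∣ p ^ k := by rw [← hk, h1]; exact ⟨2 * 2 ^ n, by ring⟩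
      have h3 : 2 ∣ p := Nat.Prime.dvd_of_dvd_pow Nat.prime_two h2
      have hp : p.Prime := Fact.out
      exact hp2 ((Nat.prime_dvd_prime_iff_eq Nat.prime_two hp).mp h3).symm

/-- [SOLV-LIFT] -/
theorem pkgSolvLift : Cfsg.Agent.Lib.Helper81.FCZ.PkgSolvLift.{u} := by
  intro hSB G _ _ hS hsol ⟨S, hSnc⟩
  classical
  haveI : Fact (Nat.Prime 2) := ⟨Nat.prime_two⟩
  haveI := hsol
  obtain ⟨O, hOdef⟩ : ∃ O : Subgroup G, O = Cfsg.pPrimeCore 2 G := ⟨_, rfl⟩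
  haveI hOn : O.Normal := hOdef ▸ Cfsg.pPrimeCore_normal 2 G
  have hOodd : (Nat.card O).Coprime 2 := hOdef ▸ Cfsg.Agent.Lib.Helper55.pPrimeCore_coprime 2 G
  have hO' : ∀ N : Subgroup (G ⧸ O), N.Normal → (Nat.card N).Coprime 2 → N = ⊥ := by
    subst hOdef
    exact Cfsg.Agent.Lib.Helper55.eq_bot_of_normal_coprime_quotient 2 G
  obtain ⟨π, hπ⟩ : ∃ π : G →* G ⧸ O, π = QuotientGroup.mk' O := ⟨_, rfl⟩
  have hπs : Function.Surjective π := hπ ▸ QuotientGroup.mk'_surjective O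
  have hπ1 : ∀ x : G, π x = 1 → x ∈ O := fun x hx => by
    rw [hπ] at hx; exact (QuotientGroup.eq_one_iff x).mp hx
  have hinj2 : ∀ x : G, (∃ k : ℕ, x ^ 2 ^ k = 1) → π x = 1 → x = 1 := by
    intro x ⟨k, hk⟩ hx
    have h1 : orderOf x ∣ Nat.card O := by
      have h2 := orderOf_dvd_natCard (⟨x, hπ1 x hx⟩ : O)
      rwa [Subgroup.orderOf_mk] at h2
    have h3 : orderOf x ∣ 2 ^ k := orderOf_dvd_of_pow_eq_one hk
    have h4 : orderOf x = 1 :=
      Nat.Coprime.eq_one_of_dvd (Nat.Coprime.pow_right k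
        (Nat.Coprime.coprime_dvd_left h1 hOodd)) h3
    exact orderOf_eq_one_iff.mp h4
  obtain ⟨T, hT⟩ : ∃ T : Sylow 2 (G ⧸ O), (T : Subgroup (G ⧸ O)) = (S : Subgroup G).map π :=
    ⟨S.mapSurjective hπs, Sylow.coe_mapSurjective hπs S⟩
  have hbij : Function.Bijective (π.subgroupMap (S : Subgroup G)) := by
    refine ⟨?_, π.subgroupMap_surjective _⟩
    rw [injective_iff_map_eq_one]
    intro x hx
    have h1 : π (x : G) = 1 := congrArg Subtype.val hx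
    obtain ⟨k, hk⟩ := S.isPGroup' x
    have h2 : (x : G) ^ 2 ^ k = 1 := congrArg Subtype.val hk
    exact Subtype.ext (hinj2 _ ⟨k, h2⟩ h1)
  obtain ⟨E⟩ : Nonempty ((S : Subgroup G) ≃* (T : Subgroup (G ⧸ O))) :=
    ⟨(MulEquiv.ofBijective _ hbij).trans (MulEquiv.subgroupCongr hT.symm)⟩
  have hTnc : ¬ IsCyclic (T : Subgroup (G ⧸ O)) := by
    intro hc
    apply hSnc
    haveI := hc
    exact isCyclic_of_surjective E.symm E.symm.surjective
  have hTq : ∃ n : ℕ, Nonempty ((T : Subgroup (G ⧸ O)) ≃* QuaternionGroup (2 ^ n)) := by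
    rcases hS 2 S with hc | ⟨n, ⟨e⟩⟩
    · exact absurd hc hSnc
    · exact ⟨n, ⟨E.symm.trans e⟩⟩
  have hsolq : Group.IsSolvable (G ⧸ O) := inferInstance
  have hπeq : ∀ {X : Type} [Group X] (fbar : G ⧸ O →* X), Function.Surjective fbar →
      IsCyclic fbar.ker → (fbar.comp π).ker.Normal ∧ ZSyl (fbar.comp π).ker ∧
        Function.Surjective (fbar.comp π) := by
    intro X _ fbar hs hc
    refine ⟨MonoidHom.normal_ker _, ?_, hs.comp hπs⟩
    rw [hπ]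
    exact solvLift_zsyl hS O hOodd fbar hc
  rcases hSB hsolq hO' T hTnc hTq with ⟨fbar, hs, hc⟩ | ⟨fbar, hs, hc⟩ | ⟨fbar, hs, hc⟩
  · obtain ⟨h1, h2, h3⟩ := hπeq fbar hs hc
    exact ⟨(fbar.comp π).ker, h1, h2, Or.inr (Or.inl ⟨fbar.comp π, h3, rfl⟩)⟩
  · obtain ⟨h1, h2, h3⟩ := hπeq fbar hs hc
    exact ⟨(fbar.comp π).ker, h1, h2, Or.inr (Or.inr (Or.inl ⟨fbar.comp π, h3, rfl⟩))⟩
  · obtain ⟨h1, h2, h3⟩ := hπeq fbar hs hc
    exact ⟨(fbar.comp π).ker, h1, h2, Or.inr (Or.inr (Or.inr (Or.inl ⟨fbar.comp π, h3, rfl⟩)))⟩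

end Cfsg.Agent.Lib.Helper76.FCZ
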